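import Mathlib
import Cfsg.Agent.Lib.Helper95.OFX.Defs
import Cfsg.Agent.Lib.Helper20.OPar.Om1
import Cfsg.Agent.Lib.Helper80.OPar.Exe0
import Cfsg.Agent.Lib.Helper97.OHyp.OddOmega
import Cfsg.Agent.Lib.Helper8.MinusReps

/-!
# OFX (S5977), package [DERODD]

`r` an odd prime different from the characteristic, `i = ord_r(q)` odd and `≤ d`:
`x = Φ(diag(M, 1))`, `Φ(A) = fromBlocks A 0 0 (A⁻¹)ᵀ`, `M ∈ GL_i(F)` of order `r` without
eigenvalue `1`, is an element of `Ω⁺_{2d}(F)` of order `r` with `rank (x - 1) = 2 i`.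
-/

set_option autoImplicit false
open scoped MatrixGroups
open Matrix

namespace Cfsg.Agent.Lib.Helper67.OFX

open Cfsg.Agent.Lib.Helper95.OFX

universe u

section

variable {F : Type u} [Field F]

/-- `N ↦ diag(N, 1)` on `Fin (i + e)`. -/
noncomputable def padHom (i e : ℕ) :
    Matrix (Fin i) (Fin i) F →* Matrix (Fin (i + e)) (Fin (i + e)) F where
  toFun N := (fromBlocks N 0 0 (1 : Matrix (Fin e) (Fin e) F)).submatrix
    finSumFinEquiv.symm finSumFinEquiv.symm
  map_one' := by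
    rw [fromBlocks_one, submatrix_one_equiv]
  map_mul' N N' := by
    rw [submatrix_mul_equiv, fromBlocks_multiply]
    simp

theorem padHom_apply (i e : ℕ) (N : Matrix (Fin i) (Fin i) F) :
    padHom i e N = (fromBlocks N 0 0 (1 : Matrix (Fin e) (Fin e) F)).submatrix
      finSumFinEquiv.symm finSumFinEquiv.symm := rfl

theorem rank_padHom_sub_one (i e : ℕ) (N : Matrix (Fin i) (Fin i) F)
    (hN : (N - 1).det ≠ 0) : (padHom i e N - 1).rank = i := by
  have h3 : fromBlocks N 0 0 (1 : Matrix (Fin e) (Fin e) F) - 1 =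
      fromBlocks (N - 1) 0 0 (0 : Matrix (Fin e) (Fin e) F) := by
    ext (a | a) (b | b) <;> simp [Matrix.one_apply]
  have h1 : padHom i e N - 1 =
      (fromBlocks (N - 1) 0 0 (0 : Matrix (Fin e) (Fin e) F)).submatrix
        finSumFinEquiv.symm finSumFinEquiv.symm := by
    rw [padHom_apply, ← h3]
    have h2 : (1 : Matrix (Fin (i + e)) (Fin (i + e)) F) =
        (1 : Matrix (Fin i ⊕ Fin e) (Fin i ⊕ Fin e) F).submatrix
          finSumFinEquiv.symm finSumFinEquiv.symm := (submatrix_one_equiv _).symm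
    rw [h2]
    rfl
  rw [h1, rank_submatrix, Cfsg.Agent.Lib.Helper8.MinusReps.rank_fromBlocks_diag, rank_zero,
    add_zero, rank_of_isUnit _ ((isUnit_iff_isUnit_det _).2 (IsUnit.mk0 _ hN)),
    Fintype.card_fin]

/-- the rank of `Φ(A) - 1` -/
theorem rank_phi_sub_one (d : ℕ) (A : GL (Fin d) F) :
    (((Cfsg.Agent.Lib.Helper20.OPar.phi d A : GL (Fin d ⊕ Fin d) F) :
      Matrix (Fin d ⊕ Fin d) (Fin d ⊕ Fin d) F) - 1).rank =
      2 * ((A : Matrix (Fin d) (Fin d) F) - 1).rank := by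
  have h1 : ((Cfsg.Agent.Lib.Helper20.OPar.phi d A : GL (Fin d ⊕ Fin d) F) :
      Matrix (Fin d ⊕ Fin d) (Fin d ⊕ Fin d) F) - 1 =
      fromBlocks ((A : Matrix (Fin d) (Fin d) F) - 1) 0 0
        (((A⁻¹ : GL (Fin d) F) : Matrix (Fin d) (Fin d) F)ᵀ - 1) := by
    rw [Cfsg.Agent.Lib.Helper20.OPar.phi_val]
    ext (a | a) (b | b) <;> simp [Matrix.one_apply]
  have h2 : (((A⁻¹ : GL (Fin d) F) : Matrix (Fin d) (Fin d) F)ᵀ - 1).rank =
      ((A : Matrix (Fin d) (Fin d) F) - 1).rank := by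
    have h3 : ((A⁻¹ : GL (Fin d) F) : Matrix (Fin d) (Fin d) F)ᵀ - 1 =
        ((-((A⁻¹ : GL (Fin d) F) : Matrix (Fin d) (Fin d) F)) *
          ((A : Matrix (Fin d) (Fin d) F) - 1))ᵀ := by
      rw [Matrix.neg_mul, Matrix.mul_sub, Units.inv_mul, Matrix.mul_one, neg_sub,
        transpose_sub, transpose_one]
    have hu : IsUnit (-((A⁻¹ : GL (Fin d) F) : Matrix (Fin d) (Fin d) F)).det :=
      (isUnit_iff_isUnit_det _).1 (A⁻¹).isUnit.neg
    rw [h3, rank_transpose, rank_mul_eq_right_of_isUnit_det _ _ hu]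
  rw [h1, Cfsg.Agent.Lib.Helper8.MinusReps.rank_fromBlocks_diag, h2]
  ring

end

/-- [DERODD] -/
theorem pkgDerOdd : PkgDerOdd.{u} := by
  intro F _ _ p _ _ hq d r hr hr2 hrp hodd hid
  classical
  have hpP : p.Prime := Fact.out
  have hrq : ¬ r ∣ Fintype.card F := by
    obtain ⟨f, -, hf⟩ := FiniteField.card F p
    rw [hf]
    intro h
    exact hrp ((Nat.prime_dvd_prime_iff_eq hr hpP).1 (hr.dvd_of_dvd_pow h))
  have h2 : (2 : F) ≠ 0 := Ring.two_ne_zero (fun hc => by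
    have h := FiniteField.even_card_of_char_two hc
    obtain ⟨t, ht⟩ := hq
    omega)
  obtain ⟨i, hi⟩ : ∃ i, i = orderOf ((Fintype.card F : ℕ) : ZMod r) := ⟨_, rfl⟩
  rw [← hi] at hodd hid
  obtain ⟨e, rfl⟩ := Nat.exists_eq_add_of_le hid
  have hi1 : 1 ≤ i := by
    obtain ⟨t, ht⟩ := hodd
    omega
  obtain ⟨M, hM, hdet⟩ := Cfsg.Agent.Lib.Helper80.OPar.exists_GL_nofix80 (F := F) r hr hrq i 1
    (by rw [hi, mul_one]; rfl)
  -- the padded element of `GL_d`
  obtain ⟨A, hA⟩ : ∃ A : GL (Fin (i + e)) F, A = Units.map (padHom i e) M := ⟨_, rfl⟩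
  have hAval : (A : Matrix (Fin (i + e)) (Fin (i + e)) F) =
      padHom i e (M : Matrix (Fin i) (Fin i) F) := by
    rw [hA]
    rfl
  have hAr : A ^ r = 1 := by
    rw [hA, ← map_pow, hM, map_one]
  have hrankA : ((A : Matrix (Fin (i + e)) (Fin (i + e)) F) - 1).rank = i := by
    rw [hAval]
    exact rank_padHom_sub_one i e _ hdet
  obtain ⟨x, hx⟩ : ∃ x : GL (Fin (i + e) ⊕ Fin (i + e)) F,
      x = Cfsg.Agent.Lib.Helper20.OPar.phi (i + e) A := ⟨_, rfl⟩
  have hxr : x ^ r = 1 := by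
    rw [hx, ← map_pow, hAr, map_one]
  have hrank : ((x : Matrix (Fin (i + e) ⊕ Fin (i + e)) (Fin (i + e) ⊕ Fin (i + e)) F) -
      1).rank = 2 * i := by
    rw [hx, rank_phi_sub_one, hrankA]
  have hx1 : x ≠ 1 := by
    intro h
    rw [h, Units.val_one, sub_self, rank_zero] at hrank
    omega
  have hord : orderOf x = r := by
    have : Fact r.Prime := ⟨hr⟩
    exact orderOf_eq_prime hxr hx1
  have hxI : x ∈ Cfsg.isometryGroup F (Cfsg.quadFormPlus (i + e) F) := by
    rw [hx]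
    exact Cfsg.Agent.Lib.Helper20.OPar.phi_mem (i + e) A
  have hxΩ : x ∈ Cfsg.Geo.omegaGL (Cfsg.quadFormPlus (i + e) F) :=
    Cfsg.Agent.Lib.Helper97.OHyp.pkgOddOmega F (Fin (i + e) ⊕ Fin (i + e))
      (Cfsg.quadFormPlus (i + e) F)
      (Cfsg.Agent.Lib.Helper12.OHyp.nondeg_quadFormPlus (i + e)) h2 x hxI
      (by rw [hord]; exact hr.odd_of_ne_two hr2)
  refine ⟨x, hxΩ, ?_, ?_, ?_⟩
  · rw [← Units.val_pow_eq_pow_val, hxr, Units.val_one]
  · intro z hz
    -- a scalar `Φ(A)` has `A = z`, `A⁻¹ = z`, so `z² = 1`, and `z ^ r = 1` gives `z = 1`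
    have hz' : fromBlocks (A : Matrix (Fin (i + e)) (Fin (i + e)) F) 0 0
        ((A⁻¹ : GL (Fin (i + e)) F) : Matrix (Fin (i + e)) (Fin (i + e)) F)ᵀ =
        fromBlocks (z • (1 : Matrix (Fin (i + e)) (Fin (i + e)) F)) 0 0
          (z • (1 : Matrix (Fin (i + e)) (Fin (i + e)) F)) := by
      rw [← Cfsg.Agent.Lib.Helper20.OPar.phi_val, ← hx, hz, ← fromBlocks_one, fromBlocks_smul]
      simp
    obtain ⟨hA1, -, -, hA2⟩ := fromBlocks_inj.1 hz'
    have hA3 : ((A⁻¹ : GL (Fin (i + e)) F) : Matrix (Fin (i + e)) (Fin (i + e)) F) =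
        z • (1 : Matrix (Fin (i + e)) (Fin (i + e)) F) := by
      have := congrArg Matrix.transpose hA2
      rwa [transpose_transpose, transpose_smul, transpose_one] at this
    have hzz : (z * z) • (1 : Matrix (Fin (i + e)) (Fin (i + e)) F) = 1 := by
      have h := A.mul_inv
      rw [hA1, hA3, smul_mul_smul_comm, Matrix.one_mul] at h
      exact h
    have hzr : (z ^ r) • (1 : Matrix (Fin (i + e)) (Fin (i + e)) F) = 1 := by
      have h := congrArg Units.val hAr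
      rw [Units.val_pow_eq_pow_val, hA1, smul_pow, one_pow, Units.val_one] at h
      exact h
    have e1 : z * z = 1 := by
      have := congrFun (congrFun hzz ⟨0, by omega⟩) ⟨0, by omega⟩
      simpa using this
    have e2 : z ^ r = 1 := by
      have := congrFun (congrFun hzr ⟨0, by omega⟩) ⟨0, by omega⟩
      simpa using this
    have e3 : z = 1 := by
      obtain ⟨t, ht⟩ := hr.odd_of_ne_two hr2
      rw [ht, pow_succ, pow_mul, pow_two, e1, one_pow, one_mul] at e2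
      exact e2
    rw [e3, one_smul] at hA1
    rw [hA1, sub_self, rank_zero] at hrankA
    omega
  · rw [hrank]
    obtain ⟨t, ht⟩ := hodd
    omega

end Cfsg.Agent.Lib.Helper67.OFX
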